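import Cfsg.Agent.SolvStr.PG3

/-! Sizes of same-order classes: general counting tools, and the values for `A₄`, `A₅`, `A₆`. -/

set_option linter.unusedSectionVars false

namespace CF.Nse
open Subgroup CF.SolvStr Finset
open scoped Pointwise

variable {G : Type*} [Group G] [Finite G] {p r m k a : ℕ}

theorem sum_eq (T : Finset ℕ) : ∑ d ∈ T, cnt G d = Nat.card {g : G // orderOf g ∈ T} := by
  classical
  have := Fintype.ofFinite G
  rw [Nat.card_eq_fintype_card, Fintype.card_subtype,
    card_eq_sum_card_fiberwise (s := univ.filter fun g : G => orderOf g ∈ T) (f := orderOf) (t := T)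
      (fun x hx => (mem_filter.1 hx).2)]
  refine sum_congr rfl fun d hd => ?_
  rw [cnt, Nat.card_eq_fintype_card, Fintype.card_subtype]
  congr 1
  ext x
  simp only [mem_filter, mem_univ, true_and]
  exact ⟨fun h => ⟨h ▸ hd, h⟩, fun h => h.2⟩

theorem sum_le (T : Finset ℕ) : ∑ d ∈ T, cnt G d ≤ Nat.card G :=
  sum_eq (G := G) T ▸ Finite.card_subtype_le _

theorem card_eq_sum (T : Finset ℕ) (h : ∀ g : G, orderOf g ∈ T) : Nat.card G = ∑ d ∈ T, cnt G d := by
  rw [sum_eq, Nat.card_congr (Equiv.subtypeUnivEquiv h)]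

theorem cnt_zero_of_dvd (h : cnt G m = 0) (d : m ∣ k) : cnt G k = 0 := by
  by_contra e
  obtain ⟨g, rfl⟩ := cnt_ne_zero.1 e
  exact cnt_ne_zero.2 ⟨g ^ (orderOf g / m), orderOf_pow_orderOf_div (orderOf_pos g).ne' d⟩ h

theorem cnt_zero_of_not_dvd (d : ¬ m ∣ Nat.card G) : cnt G m = 0 := by
  by_contra e
  obtain ⟨g, rfl⟩ := cnt_ne_zero.1 e
  exact d (orderOf_dvd_natCard g)

theorem not_dvd_order (h : cnt G m = 0) (g : G) : ¬ m ∣ orderOf g := fun d =>
  cnt_ne_zero.2 ⟨g, rfl⟩ (cnt_zero_of_dvd h d)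

theorem sum_vals_le (S : Finset ℕ)
    (h : (S : Set ℕ) ⊆ (fun m : ℕ => cnt G m) '' Set.range (orderOf : G → ℕ)) :
    ∑ v ∈ S, v ≤ Nat.card G := by
  classical
  choose! f hf e using h
  refine le_trans (le_of_eq ?_) (sum_le (S.image f))
  rw [sum_image fun x hx y hy h => by rw [← e hx, ← e hy, h]]
  exact sum_congr rfl fun v hv => (e hv).symm

theorem dvd_of_primes {n : ℕ} (a b c : ℕ)
    (h : ∀ p : ℕ, p.Prime → p ∣ n → p = 2 ∨ p = 3 ∨ p = 5)
    (h2 : ¬ 2 ^ (a + 1) ∣ n) (h3 : ¬ 3 ^ (b + 1) ∣ n) (h5 : ¬ 5 ^ (c + 1) ∣ n) :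
    n ∣ 2 ^ a * 3 ^ b * 5 ^ c := by
  refine (Nat.dvd_iff_prime_pow_dvd_dvd _ _).2 fun p k hp d => ?_
  rcases Nat.eq_zero_or_pos k with rfl | k0
  · simp
  have le : ∀ a, ¬ p ^ (a + 1) ∣ n → p ^ k ∣ p ^ a := fun a h =>
    pow_dvd_pow p (by_contra fun l => h ((pow_dvd_pow p (by omega)).trans d))
  rcases h p hp ((dvd_pow_self p k0.ne').trans d) with rfl | rfl | rfl
  · exact (le a h2).trans ((dvd_mul_right _ _).trans (dvd_mul_right _ _))
  · exact (le b h3).trans ((dvd_mul_left _ _).trans (dvd_mul_right _ _))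
  · exact (le c h5).trans (dvd_mul_left _ _)

theorem fiber_ncard {s : G} (hs : orderOf s = m) :
    {s' : G | orderOf s' = m ∧ zpowers s' = zpowers s}.ncard = m.totient := by
  classical
  have := Fintype.ofFinite (zpowers s)
  have e : {s' : G | orderOf s' = m ∧ zpowers s' = zpowers s} =
      Subtype.val '' {a : zpowers s | orderOf a = m} := Set.ext fun x =>
    ⟨fun h => ⟨⟨x, h.2 ▸ mem_zpowers x⟩, (orderOf_mk _ _).trans h.1, rfl⟩, by
      rintro ⟨a, ha, rfl⟩
      have o : orderOf (a : G) = m := (orderOf_coe a).trans ha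
      exact ⟨o, CF.BG.eq_of_card_eq (zpowers_le.2 a.2)
        (by rw [Nat.card_zpowers, Nat.card_zpowers, o, hs])⟩⟩
  rw [e, Set.ncard_image_of_injective _ Subtype.val_injective, ← IsCyclic.card_orderOf_eq_totient
    (α := zpowers s) (by rw [← Nat.card_eq_fintype_card, Nat.card_zpowers, hs]), ← Set.ncard_coe_finset]
  simp

/-- If a Sylow `p`-subgroup is cyclic then `cnt p ∣ (p - 1) |G|`. -/
theorem cnt_dvd (hp : p.Prime) (h : cnt G (p ^ (a + 1)) ≠ 0) (nd : ¬ p ^ (a + 2) ∣ Nat.card G) :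
    cnt G p ∣ (p - 1) * Nat.card G := by
  classical
  have := Fact.mk hp
  have := Fintype.ofFinite G
  obtain ⟨g, hg⟩ := cnt_ne_zero.1 h
  have cP : Nat.card (zpowers g) = p ^ (Nat.card G).factorization p := by
    rw [Nat.card_zpowers, hg]
    congr 1
    have d := hg ▸ orderOf_dvd_natCard g
    rw [hp.pow_dvd_iff_le_factorization Nat.card_pos.ne'] at d nd
    omega
  let P : Sylow p G := Sylow.ofCard _ cP
  let z := g ^ p ^ a
  have oz : orderOf z = p := by
    rw [orderOf_pow_of_dvd (pow_pos hp.pos a).ne' (hg ▸ pow_dvd_pow p a.le_succ), hg, pow_succ,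
      Nat.mul_div_cancel_left _ (pow_pos hp.pos a)]
  have cy : IsCyclic (zpowers g) := inferInstance
  -- every subgroup of order `p` is conjugate to `zpowers z`
  have cj : ∀ y : G, orderOf y = p → zpowers y ∈ MulAction.orbit (ConjAct G) (zpowers z) := by
    intro y hy
    obtain ⟨Q, hQ⟩ := (IsPGroup.of_card (p := p) (n := 1) (G := zpowers y)
      (by rw [Nat.card_zpowers, hy, pow_one])).exists_le_sylow
    obtain ⟨c, hc⟩ := MulAction.exists_smul_eq G Q P
    have m1 : c * y * c⁻¹ ∈ zpowers g := by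
      have : c * y * c⁻¹ ∈ ((c • Q : Sylow p G) : Subgroup G) :=
        smul_mem_pointwise_smul y (MulAut.conj c) _ (hQ (mem_zpowers y))
      rw [hc] at this
      exact this
    have o1 : orderOf (c * y * c⁻¹) = p := by
      rw [← hy]; exact (MulAut.conj c).orderOf_eq y
    have e : zpowers (c * y * c⁻¹) = zpowers z := by
      refine CF.BG.eq_of_card_eq (zpowers_le.2 ?_) (by rw [Nat.card_zpowers, Nat.card_zpowers, o1, oz])
      obtain ⟨i, hi⟩ := (mem_powers_iff_mem_zpowers.2 m1 : _)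
      have hi : g ^ i = c * y * c⁻¹ := hi
      have : p ^ a * p ∣ i * p := by
        rw [← pow_succ, ← hg, orderOf_dvd_iff_pow_eq_one, pow_mul, hi, ← o1, pow_orderOf_eq_one]
      obtain ⟨j, rfl⟩ := Nat.dvd_of_mul_dvd_mul_right hp.pos this
      rw [← hi, pow_mul]
      exact pow_mem (mem_zpowers _) j
    refine ⟨ConjAct.toConjAct c⁻¹, ?_⟩
    rw [← e]
    refine (MonoidHom.map_zpowers _ _).trans ?_
    congr 1
    show c⁻¹ * (c * y * c⁻¹) * c⁻¹⁻¹ = y
    group
  have fo := Fintype.ofFinite (MulAction.orbit (ConjAct G) (zpowers z))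
  have e : cnt G p = (p - 1) * Nat.card (MulAction.orbit (ConjAct G) (zpowers z)) := by
    rw [cnt, Nat.card_eq_fintype_card, Fintype.card_subtype,
      card_eq_sum_card_fiberwise (s := univ.filter fun g : G => orderOf g = p) (f := zpowers)
        (t := (MulAction.orbit (ConjAct G) (zpowers z)).toFinset)
        (fun x hx => by simpa using cj x (mem_filter.1 hx).2),
      Nat.card_eq_fintype_card, ← Set.toFinset_card, mul_comm, ← smul_eq_mul, ← sum_const]
    refine sum_congr rfl fun Z hZ => ?_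
    obtain ⟨c, rfl⟩ := Set.mem_toFinset.1 hZ
    have o : orderOf (c • z) = p := by
      rw [← oz]; exact (MulAut.conj (ConjAct.ofConjAct c)).orderOf_eq z
    have e : c • zpowers z = zpowers (c • z) := MonoidHom.map_zpowers _ _
    rw [← Nat.totient_prime hp, ← fiber_ncard o, ← Set.ncard_coe_finset]
    congr 1
    ext x
    simp [e]
  rw [e]
  refine mul_dvd_mul_left _ ?_
  rw [Nat.card_congr (MulAction.orbitEquivQuotientStabilizer _ _)]
  exact (card_quotient_dvd_card _).trans (by rw [Nat.card_congr ConjAct.ofConjAct.toEquiv])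

theorem prime_dvd (hp : p.Prime) (h : cnt G (p ^ (a + 1)) ≠ 0) (nd : ¬ p ^ (a + 2) ∣ Nat.card G)
    (hr : r.Prime) (d : r ∣ cnt G p) (n : ¬ r ∣ p - 1) : r ∣ Nat.card G :=
  ((Nat.Prime.dvd_mul hr).1 (d.trans (cnt_dvd hp h nd))).resolve_left n

/-! ### the hypothesis -/

/-- the set of sizes of same-order classes is `S` -/
def HasNse (G : Type*) [Group G] (S : Finset ℕ) : Prop :=
  (fun m : ℕ => cnt G m) '' Set.range (orderOf : G → ℕ) = (S : Set ℕ)

theorem HasNse.mem {S : Finset ℕ} (h : HasNse G S) (k : ℕ) : cnt G k = 0 ∨ cnt G k ∈ S :=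
  (cnt_mem k).imp_right fun e => by rwa [h] at e

theorem HasNse.att {S : Finset ℕ} (h : HasNse G S) {v : ℕ} (hv : v ∈ S) :
    ∃ g : G, cnt G (orderOf g) = v := by
  obtain ⟨_, ⟨g, rfl⟩, e⟩ := h.ge hv
  exact ⟨g, e⟩

theorem HasNse.le {S : Finset ℕ} (h : HasNse G S) : ∑ v ∈ S, v ≤ Nat.card G := sum_vals_le S h.ge

theorem HasNse.two {S : Finset ℕ} (h : HasNse G S) {v : ℕ} (hv : v ∈ S) (o : Odd v) (v1 : v ≠ 1) :
    cnt G 2 = v := by
  obtain ⟨g, e⟩ := h.att hv
  have := orderOf_pos g
  by_cases l : 2 < orderOf g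
  · exact absurd (e ▸ even_cnt l) (Nat.not_even_iff_odd.2 o)
  have : orderOf g ≠ 1 := fun e' => v1 (by rw [← e, e', cnt_one])
  rw [← e]
  congr 1
  omega

/-- from the set of orders and the counts -/
theorem nse_of (T S : Finset ℕ) (hc : ∑ d ∈ T, cnt G d = Nat.card G) (h0 : ∀ d ∈ T, cnt G d ≠ 0)
    (hS : T.image (cnt G) = S) : HasNse G S := by
  classical
  have : Set.range (orderOf : G → ℕ) = T := by
    ext d
    refine ⟨?_, fun h => cnt_ne_zero.1 (h0 d h)⟩
    rintro ⟨g, rfl⟩
    by_contra n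
    have := sum_le (G := G) (insert (orderOf g) T)
    rw [sum_insert n, hc] at this
    exact cnt_ne_zero.2 ⟨g, rfl⟩ (by omega)
  rw [HasNse, this, ← hS, coe_image]

theorem card_pow_alt (n k : ℕ) : Nat.card {x : alternatingGroup (Fin n) // x ^ k = 1} =
    (univ.filter fun x : Equiv.Perm (Fin n) => Equiv.Perm.sign x = 1 ∧ x ^ k = 1).card := by
  rw [← Fintype.card_subtype, ← Nat.card_eq_fintype_card]
  exact Nat.card_congr
    ⟨fun x => ⟨x.1.1, x.1.2, congrArg Subtype.val x.2⟩, fun x => ⟨⟨x.1, x.2.1⟩, Subtype.ext x.2.2⟩,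
      fun _ => rfl, fun _ => rfl⟩

theorem cnt_prime_alt (n : ℕ) (hp : p.Prime) : 1 + cnt (alternatingGroup (Fin n)) p =
    (univ.filter fun x : Equiv.Perm (Fin n) => Equiv.Perm.sign x = 1 ∧ x ^ p = 1).card := by
  rw [← card_pow_alt, ← sum_cnt hp.ne_zero, hp.sum_divisors, cnt_one, add_comm]

theorem card_alt (n : ℕ) [Nontrivial (Fin n)] : 2 * Nat.card (alternatingGroup (Fin n)) = n.factorial := by
  rw [Nat.card_eq_fintype_card, two_mul_card_alternatingGroup, Fintype.card_perm, Fintype.card_fin]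

theorem nse_A4 : HasNse (alternatingGroup (Fin 4)) {1, 3, 8} := by
  have c2 := (cnt_prime_alt 4 Nat.prime_two).trans (show _ = 4 by decide +kernel)
  have c3 := (cnt_prime_alt 4 Nat.prime_three).trans (show _ = 9 by decide +kernel)
  have c := card_alt 4
  have c1 := cnt_one (G := alternatingGroup (Fin 4))
  have e2 : cnt (alternatingGroup (Fin 4)) 2 = 3 := by omega
  have e3 : cnt (alternatingGroup (Fin 4)) 3 = 8 := by omega
  refine nse_of {1, 2, 3} _ ?_ ?_ ?_
  · norm_num only [Nat.factorial] at c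
    rw [sum_insert (by decide), sum_pair (by decide)]; omega
  · simp only [mem_insert, mem_singleton, forall_eq_or_imp, forall_eq, c1, e2, e3]; decide
  · simp only [image_insert, image_singleton, c1, e2, e3]

theorem nse_A5 : HasNse (alternatingGroup (Fin 5)) {1, 15, 20, 24} := by
  have c2 := (cnt_prime_alt 5 Nat.prime_two).trans (show _ = 16 by decide +kernel)
  have c3 := (cnt_prime_alt 5 Nat.prime_three).trans (show _ = 21 by decide +kernel)
  have c5 := (cnt_prime_alt 5 Nat.prime_five).trans (show _ = 25 by decide +kernel)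
  have c := card_alt 5
  have c1 := cnt_one (G := alternatingGroup (Fin 5))
  have e2 : cnt (alternatingGroup (Fin 5)) 2 = 15 := by omega
  have e3 : cnt (alternatingGroup (Fin 5)) 3 = 20 := by omega
  have e5 : cnt (alternatingGroup (Fin 5)) 5 = 24 := by omega
  refine nse_of {1, 2, 3, 5} _ ?_ ?_ ?_
  · norm_num only [Nat.factorial] at c
    rw [sum_insert (by decide), sum_insert (by decide), sum_pair (by decide)]; omega
  · simp only [mem_insert, mem_singleton, forall_eq_or_imp, forall_eq, c1, e2, e3, e5]; decide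
  · simp only [image_insert, image_singleton, c1, e2, e3, e5]

theorem nse_A6 : HasNse (alternatingGroup (Fin 6)) {1, 45, 80, 90, 144} := by
  have c2 := (cnt_prime_alt 6 Nat.prime_two).trans (show _ = 46 by decide +kernel)
  have c3 := (cnt_prime_alt 6 Nat.prime_three).trans (show _ = 81 by decide +kernel)
  have c5 := (cnt_prime_alt 6 Nat.prime_five).trans (show _ = 145 by decide +kernel)
  have c4 := ((sum_cnt (by norm_num)).trans (card_pow_alt 6 4)).trans (show _ = 136 by decide +kernel)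
  rw [sum_div_four] at c4
  have c := card_alt 6
  have c1 := cnt_one (G := alternatingGroup (Fin 6))
  have e2 : cnt (alternatingGroup (Fin 6)) 2 = 45 := by omega
  have e3 : cnt (alternatingGroup (Fin 6)) 3 = 80 := by omega
  have e4 : cnt (alternatingGroup (Fin 6)) 4 = 90 := by omega
  have e5 : cnt (alternatingGroup (Fin 6)) 5 = 144 := by omega
  refine nse_of {1, 2, 3, 4, 5} _ ?_ ?_ ?_
  · norm_num only [Nat.factorial] at c
    rw [sum_insert (by decide), sum_insert (by decide), sum_insert (by decide), sum_pair (by decide)]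
    omega
  · simp only [mem_insert, mem_singleton, forall_eq_or_imp, forall_eq, c1, e2, e3, e4, e5]; decide
  · simp only [image_insert, image_singleton, c1, e2, e3, e4, e5]

end CF.Nse
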