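import Cfsg.Agent.Nse.A
import Cfsg.Agent.S0228
import Cfsg.Agent.Classical.SmallRecog

/-! Recognition of `A₄`, `A₅` by the sizes of same-order classes. -/

set_option linter.unusedSectionVars false

namespace CF.Nse
open Subgroup CF.SolvStr Finset

variable {G : Type*} [Group G] [Finite G]

theorem frob (n : ℕ) (L : List ℕ) (d : n ∣ Nat.card G) (h : n.divisors = L.toFinset := by decide +kernel)
    (nd : L.Nodup := by decide) : n ∣ (L.map (cnt G)).sum := by
  rw [← List.sum_toFinset _ nd, ← h]
  exact dvd_sum_cnt d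

theorem tot (G : Type*) [Group G] [Finite G] (k t : ℕ) (h : k.totient = t := by decide +kernel) :
    t ∣ cnt G k := h ▸ totient_dvd_cnt k

theorem card_list (L : List ℕ) (h : ∀ g : G, orderOf g ∈ L) (nd : L.Nodup := by decide) :
    Nat.card G = (L.map (cnt G)).sum := by
  rw [← List.sum_toFinset _ nd]
  exact card_eq_sum _ fun g => List.mem_toFinset.2 (h g)

theorem list_le (G : Type*) [Group G] [Finite G] (L : List ℕ) (nd : L.Nodup := by decide) :
    (L.map (cnt G)).sum ≤ Nat.card G := by
  rw [← List.sum_toFinset _ nd]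
  exact sum_le _

theorem prime_facts {p : ℕ} (hp : p.Prime) (d : p ∣ Nat.card G) :
    cnt G p ≠ 0 ∧ p ∣ 1 + cnt G p ∧ p - 1 ∣ cnt G p := by
  refine ⟨cnt_prime_ne hp d, ?_, Nat.totient_prime hp ▸ totient_dvd_cnt p⟩
  have := dvd_sum_cnt d
  rwa [hp.sum_divisors, cnt_one, add_comm] at this

theorem recog4 (h : HasNse G {1, 3, 8}) : Nonempty (G ≃* alternatingGroup (Fin 4)) := by
  have c1 := cnt_one (G := G)
  have c2 := h.two (v := 3) (by decide) (by decide) (by decide)
  have v : ∀ k, 2 < k → cnt G k = 0 ∨ cnt G k = 8 := fun k l => by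
    have := h.mem k
    have := even_iff_two_dvd.1 (even_cnt (G := G) l)
    simp only [mem_insert, mem_singleton] at *
    omega
  have pr : ∀ p : ℕ, p.Prime → p ∣ Nat.card G → p = 2 ∨ p = 3 := fun p hp d => by
    obtain ⟨n0, d1, -⟩ := prime_facts hp d
    by_cases o : p = 2
    · exact Or.inl o
    rw [(v p (hp.two_le.lt_of_ne' o)).resolve_left n0] at d1
    exact Or.inr ((Nat.prime_dvd_prime_iff_eq hp Nat.prime_three).1
      (hp.dvd_of_dvd_pow (n := 2) d1))
  have v3 := v 3 (by decide)
  have v4 := v 4 (by decide)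
  have v6 := v 6 (by decide)
  have c9 : cnt G 9 = 0 := by have := v 9 (by decide); have := tot G 9 6; omega
  have d : Nat.card G ∣ 2 ^ 2 * 3 ^ 2 * 5 ^ 0 := by
    refine dvd_of_primes 2 2 0 (fun p hp d => (pr p hp d).imp_right Or.inl) (fun d => ?_)
      (fun d => ?_) fun d => by simpa using pr 5 Nat.prime_five d
    · have := frob 8 [1, 2, 4, 8] d
      have := v 8 (by decide)
      simp only [List.map, List.sum_cons, List.sum_nil] at *
      omega
    · have := frob 27 [1, 3, 9, 27] d
      have := cnt_zero_of_dvd (k := 27) c9 (by decide)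
      simp only [List.map, List.sum_cons, List.sum_nil] at *
      omega
  have c6 : cnt G 6 = 0 := by
    by_cases d6 : 6 ∣ Nat.card G
    · have := frob 6 [1, 2, 3, 6] d6
      have := (prime_facts Nat.prime_three (Dvd.dvd.trans (by decide) d6)).1
      simp only [List.map, List.sum_cons, List.sum_nil] at *
      omega
    · exact cnt_zero_of_not_dvd d6
  have o : ∀ g : G, orderOf g ∈ [1, 2, 3, 4] := fun g =>
    (show ∀ d ∈ Nat.divisors 36, ¬ 6 ∣ d → ¬ 9 ∣ d → d ∈ [1, 2, 3, 4] by decide +kernel) _
      (Nat.mem_divisors.2 ⟨(orderOf_dvd_natCard g).trans d, by decide⟩)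
      (not_dvd_order c6 g) (not_dvd_order c9 g)
  have e := card_list _ o
  have le := h.le
  have c : Nat.card G = 12 := by
    simp only [List.map, List.sum_cons, List.sum_nil] at e
    norm_num at le d
    have : Nat.card G = 12 ∨ Nat.card G = 20 := by omega
    exact this.resolve_right fun e => by rw [e] at d; omega
  refine Cfsg.Agent.S0228.result c fun z hz zc => ?_
  have := Fact.mk Nat.prime_three
  obtain ⟨x, hx⟩ := exists_prime_orderOf_dvd_card' (G := G) 3 (by rw [c]; decide)
  refine cnt_ne_zero.2 ⟨x * z, ?_⟩ c6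
  rw [Commute.orderOf_mul_eq_mul_orderOf_of_coprime (mem_center_iff.1 zc x) (by rw [hx, hz]; decide),
    hx, hz]

theorem recog5 (h : HasNse G {1, 15, 20, 24}) : Nonempty (G ≃* alternatingGroup (Fin 5)) := by
  have c1 := cnt_one (G := G)
  have c2 := h.two (v := 15) (by decide) (by decide) (by decide)
  have d2 : 2 ∣ Nat.card G := by_contra fun d => by have := cnt_zero_of_not_dvd d; omega
  have v : ∀ k, 2 < k → cnt G k = 0 ∨ cnt G k = 20 ∨ cnt G k = 24 := fun k l => by
    have := h.mem k
    have := even_iff_two_dvd.1 (even_cnt (G := G) l)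
    simp only [mem_insert, mem_singleton] at *
    omega
  have pr : ∀ p : ℕ, p.Prime → p ∣ Nat.card G → p = 2 ∨ p = 3 ∨ p = 5 := fun p hp d => by
    obtain ⟨n0, d1, d2⟩ := prime_facts hp d
    by_cases o : p = 2
    · exact Or.inl o
    rcases (v p (hp.two_le.lt_of_ne' o)).resolve_left n0 with e | e <;> rw [e] at d1 d2
    · exact (show ∀ p ∈ Nat.divisors 21, p.Prime → p - 1 ∣ 20 → p = 2 ∨ p = 3 ∨ p = 5 by
        decide +kernel) p (Nat.mem_divisors.2 ⟨d1, by decide⟩) hp d2
    · exact Or.inr (Or.inr ((Nat.prime_dvd_prime_iff_eq hp Nat.prime_five).1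
        (hp.dvd_of_dvd_pow (n := 2) d1)))
  have c3 : 3 ∣ Nat.card G → cnt G 3 = 20 := fun d => by
    have := prime_facts Nat.prime_three d; have := v 3 (by decide); omega
  have c5 : 5 ∣ Nat.card G → cnt G 5 = 24 := fun d => by
    have := prime_facts Nat.prime_five d; have := v 5 (by decide); omega
  have v4 := v 4 (by decide)
  have v8 := v 8 (by decide)
  have v10 := v 10 (by decide)
  have v16 : cnt G 16 = 0 ∨ cnt G 16 = 24 := by have := v 16 (by decide); have := tot G 16 8; omega
  have c32 : cnt G 32 = 0 := by have := v 32 (by decide); have := tot G 32 16; omega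
  have c27 : cnt G 27 = 0 := by have := v 27 (by decide); have := tot G 27 18; omega
  have c25 : cnt G 25 = 0 := by
    by_cases d : 25 ∣ Nat.card G
    · have := frob 25 [1, 5, 25] d
      have := c5 (Dvd.dvd.trans (by decide) d)
      have := v 25 (by decide)
      simp only [List.map, List.sum_cons, List.sum_nil] at *
      omega
    · exact cnt_zero_of_not_dvd d
  have n128 : ¬ 2 ^ (6 + 1) ∣ Nat.card G := fun d => by
    have := frob 128 [1, 2, 4, 8, 16, 32, 64, 128] d
    have := cnt_zero_of_dvd (k := 64) c32 (by decide)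
    have := cnt_zero_of_dvd (k := 128) c32 (by decide)
    simp only [List.map, List.sum_cons, List.sum_nil] at *
    omega
  have n125 : ¬ 5 ^ (2 + 1) ∣ Nat.card G := fun d => by
    have := frob 125 [1, 5, 25, 125] d
    have := cnt_zero_of_dvd (k := 125) c25 (by decide)
    have := c5 (Dvd.dvd.trans (by decide) d)
    simp only [List.map, List.sum_cons, List.sum_nil] at *
    omega
  have c9 : 9 ∣ Nat.card G → cnt G 9 = 24 := fun d => by
    have := frob 9 [1, 3, 9] d
    have := c3 (Dvd.dvd.trans (by decide) d)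
    have := v 9 (by decide)
    simp only [List.map, List.sum_cons, List.sum_nil] at *
    omega
  have n27 : ¬ 3 ^ (2 + 1) ∣ Nat.card G := fun d => by
    have := frob 27 [1, 3, 9, 27] d
    have := c3 (Dvd.dvd.trans (by decide) d)
    have := c9 (Dvd.dvd.trans (by decide) d)
    simp only [List.map, List.sum_cons, List.sum_nil] at *
    omega
  have c10 : 5 ∣ Nat.card G → cnt G 10 = 0 ∨ cnt G 10 = 20 := fun d => by
    have := frob 10 [1, 2, 5, 10] (Nat.Coprime.mul_dvd_of_dvd_of_dvd (m := 2) (n := 5) (by decide) d2 d)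
    have := c5 d
    simp only [List.map, List.sum_cons, List.sum_nil] at *
    omega
  by_cases d3 : 3 ∣ Nat.card G
  · have c3 := c3 d3
    have d5 : 5 ∣ Nat.card G := by
      by_cases d9 : 9 ∣ Nat.card G
      · exact prime_dvd (a := 1) Nat.prime_three (by have := c9 d9; norm_num; omega) n27
          Nat.prime_five (by omega) (by decide)
      · exact prime_dvd (a := 0) Nat.prime_three (by norm_num; omega) d9
          Nat.prime_five (by omega) (by decide)
    have c5 := c5 d5
    have c10 := c10 d5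
    have d15 : 15 ∣ Nat.card G := by omega
    have c15 : cnt G 15 = 0 := by
      have := frob 15 [1, 3, 5, 15] d15
      have := v 15 (by decide)
      simp only [List.map, List.sum_cons, List.sum_nil] at *
      omega
    have n9 : ¬ 3 ^ (1 + 1) ∣ Nat.card G := fun d => by
      have := frob (G := G) 45 [1, 3, 5, 9, 15, 45] (by norm_num at d; omega)
      have := c9 d
      have := cnt_zero_of_dvd (k := 45) c15 (by decide)
      simp only [List.map, List.sum_cons, List.sum_nil] at *
      omega
    have n25 : ¬ 5 ^ (1 + 1) ∣ Nat.card G := fun d => by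
      have := frob (G := G) 75 [1, 3, 5, 15, 25, 75] (by norm_num at d; omega)
      have := cnt_zero_of_dvd (k := 75) c15 (by decide)
      simp only [List.map, List.sum_cons, List.sum_nil] at *
      omega
    have c6 : cnt G 6 = 0 ∧ cnt G 10 = 0 := by
      have := frob 6 [1, 2, 3, 6] (by omega : 6 ∣ Nat.card G)
      have := frob 30 [1, 2, 3, 5, 6, 10, 15, 30] (by omega : 30 ∣ Nat.card G)
      have := cnt_zero_of_dvd (k := 30) c15 (by decide)
      have := v 6 (by decide)
      simp only [List.map, List.sum_cons, List.sum_nil] at *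
      omega
    have d := dvd_of_primes 6 1 1 pr n128 n9 n25
    have o : ∀ g : G, orderOf g ∈ [1, 2, 3, 4, 5, 8, 16] := fun g =>
      (show ∀ d ∈ Nat.divisors 960, ¬ 6 ∣ d → ¬ 10 ∣ d → ¬ 15 ∣ d → ¬ 32 ∣ d →
        d ∈ [1, 2, 3, 4, 5, 8, 16] by decide +kernel) _
        (Nat.mem_divisors.2 ⟨(orderOf_dvd_natCard g).trans d, by decide⟩)
        (not_dvd_order c6.1 g) (not_dvd_order c6.2 g) (not_dvd_order c15 g) (not_dvd_order c32 g)
    have e := card_list _ o
    simp only [List.map, List.sum_cons, List.sum_nil] at e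
    have c : Nat.card G = 60 := by omega
    refine CF.Classical.equiv_A5_of_card_sixty c fun g => ?_
    simp only [← orderOf_dvd_iff_pow_eq_one]
    exact (show ∀ d ∈ [1, 2, 3, 4, 5, 8, 16], ¬ 4 ∣ d → d ∣ 2 ∨ d ∣ 3 ∨ d ∣ 5 by decide) _ (o g)
      (not_dvd_order (by omega : cnt G 4 = 0) g)
  exfalso
  have d := dvd_of_primes 6 0 2 pr n128 d3 n125
  have c20 : cnt G 20 = 0 ∧ (5 ∣ Nat.card G → cnt G 4 = 0 ∨ cnt G 4 = 20) := by
    by_cases d4 : 20 ∣ Nat.card G
    · have := frob 20 [1, 2, 4, 5, 10, 20] d4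
      have := c5 (by omega)
      have := c10 (by omega)
      have := v 20 (by decide)
      have := tot G 20 8
      simp only [List.map, List.sum_cons, List.sum_nil] at *
      omega
    · exact ⟨cnt_zero_of_not_dvd d4, fun d => Or.inl (cnt_zero_of_not_dvd (by omega))⟩
  have o : ∀ g : G, orderOf g ∈ [1, 2, 4, 5, 8, 10, 16] := fun g =>
    (show ∀ d ∈ Nat.divisors 1600, ¬ 20 ∣ d → ¬ 25 ∣ d → ¬ 32 ∣ d →
      d ∈ [1, 2, 4, 5, 8, 10, 16] by decide +kernel) _
      (Nat.mem_divisors.2 ⟨(orderOf_dvd_natCard g).trans d, by decide⟩)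
      (not_dvd_order c20.1 g) (not_dvd_order c25 g) (not_dvd_order c32 g)
  have e := card_list _ o
  simp only [List.map, List.sum_cons, List.sum_nil] at e
  have le := h.le
  norm_num at le
  have v5 := v 5 (by decide)
  have c : Nat.card G = 64 ∨ Nat.card G = 80 ∨ Nat.card G = 100 ∨ 160 ≤ Nat.card G :=
    (show ∀ d ∈ Nat.divisors 1600, 60 ≤ d → d = 64 ∨ d = 80 ∨ d = 100 ∨ 160 ≤ d by decide +kernel) _
      (Nat.mem_divisors.2 ⟨d, by decide⟩) le
  rcases c with c | c | c | c
  · have z5 : cnt G 5 = 0 := cnt_zero_of_not_dvd (by omega)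
    have z10 : cnt G 10 = 0 := cnt_zero_of_not_dvd (by omega)
    obtain ⟨g, hg⟩ := h.att (v := 20) (by decide)
    have := o g
    simp only [List.mem_cons, List.not_mem_nil] at this
    rcases this with e' | e' | e' | e' | e' | e' | e' | e' <;> first | rw [e'] at hg; omega | exact e'
  · have := frob 16 [1, 2, 4, 8, 16] (by omega : 16 ∣ Nat.card G)
    have := c5 (by omega)
    have := c10 (by omega)
    have := c20.2 (by omega)
    simp only [List.map, List.sum_cons, List.sum_nil] at *
    omega
  · have : cnt G 8 = 0 := cnt_zero_of_not_dvd (by omega)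
    have : cnt G 16 = 0 := cnt_zero_of_not_dvd (by omega)
    omega
  · omega

end CF.Nse
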