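import Cfsg.Agent.Nse.B
import Cfsg.Agent.S3433

/-! Recognition of `A₆` by the sizes of same-order classes. -/

set_option linter.unusedSectionVars false

namespace CF.Nse
open Subgroup CF.SolvStr Finset

variable {G : Type*} [Group G] [Finite G]

theorem recog6 (h : HasNse G {1, 45, 80, 90, 144}) : Nonempty (G ≃* alternatingGroup (Fin 6)) := by
  have c1 := cnt_one (G := G)
  have c2 := h.two (v := 45) (by decide) (by decide) (by decide)
  have d2 : 2 ∣ Nat.card G := by_contra fun d => by have := cnt_zero_of_not_dvd d; omega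
  have v : ∀ k, 2 < k → cnt G k = 0 ∨ cnt G k = 80 ∨ cnt G k = 90 ∨ cnt G k = 144 := fun k l => by
    have := h.mem k
    have := even_iff_two_dvd.1 (even_cnt (G := G) l)
    simp only [mem_insert, mem_singleton] at *
    omega
  have c3 : 3 ∣ Nat.card G → cnt G 3 = 80 := fun d => by
    have := prime_facts Nat.prime_three d; have := v 3 (by decide); omega
  have c5 : 5 ∣ Nat.card G → cnt G 5 = 144 := fun d => by
    have := prime_facts Nat.prime_five d; have := v 5 (by decide); omega
  have n7 : ¬ 7 ∣ Nat.card G := fun d => by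
    have c7 : cnt G 7 = 90 := by
      have := prime_facts (by norm_num : Nat.Prime 7) d; have := v 7 (by decide); omega
    have n49 : ¬ 7 ^ (0 + 2) ∣ Nat.card G := fun d => by
      have := frob 49 [1, 7, 49] d
      have := v 49 (by decide)
      have := tot G 49 42
      simp only [List.map, List.sum_cons, List.sum_nil] at *
      omega
    have d5 : 5 ∣ Nat.card G := prime_dvd (a := 0) (by norm_num) (by norm_num; omega) n49
      Nat.prime_five (by omega) (by decide)
    have := frob 35 [1, 5, 7, 35] (by omega : 35 ∣ Nat.card G)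
    have := c5 d5
    have := v 35 (by decide)
    have := tot G 35 24
    simp only [List.map, List.sum_cons, List.sum_nil] at *
    omega
  have pr : ∀ p : ℕ, p.Prime → p ∣ Nat.card G → p = 2 ∨ p = 3 ∨ p = 5 := fun p hp d => by
    obtain ⟨n0, d1, d2⟩ := prime_facts hp d
    by_cases o : p = 2
    · exact Or.inl o
    have p7 : p ≠ 7 := fun e => n7 (e ▸ d)
    rcases (v p (hp.two_le.lt_of_ne' o)).resolve_left n0 with e | e | e <;> rw [e] at d1 d2
    · exact Or.inr (Or.inl ((Nat.prime_dvd_prime_iff_eq hp Nat.prime_three).1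
        (hp.dvd_of_dvd_pow (n := 4) d1)))
    · exact (show ∀ p ∈ Nat.divisors 91, p.Prime → p - 1 ∣ 90 → p ≠ 7 → p = 2 ∨ p = 3 ∨ p = 5 by
        decide +kernel) p (Nat.mem_divisors.2 ⟨d1, by decide⟩) hp d2 p7
    · exact (show ∀ p ∈ Nat.divisors 145, p.Prime → p - 1 ∣ 144 → p = 2 ∨ p = 3 ∨ p = 5 by
        decide +kernel) p (Nat.mem_divisors.2 ⟨d1, by decide⟩) hp d2
  have c4 : 4 ∣ Nat.card G → cnt G 4 = 90 := fun d => by
    have := frob 4 [1, 2, 4] d
    have := v 4 (by decide)
    simp only [List.map, List.sum_cons, List.sum_nil] at *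
    omega
  have n16 : ¬ 2 ^ (3 + 1) ∣ Nat.card G := fun d => by
    have := frob 16 [1, 2, 4, 8, 16] d
    have := c4 (Dvd.dvd.trans (by decide) d)
    have := v 8 (by decide)
    have := v 16 (by decide)
    have := tot G 8 4
    have := tot G 16 8
    simp only [List.map, List.sum_cons, List.sum_nil] at *
    omega
  have c9 : 27 ∣ Nat.card G → cnt G 9 = 0 := fun d => by
    have := frob 27 [1, 3, 9, 27] d
    have := c3 (Dvd.dvd.trans (by decide) d)
    have := v 9 (by decide)
    have := v 27 (by decide)
    have := tot G 9 6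
    have := tot G 27 18
    simp only [List.map, List.sum_cons, List.sum_nil] at *
    omega
  have le := h.le
  norm_num at le
  by_cases d5 : 5 ∣ Nat.card G
  · have c5 := c5 d5
    have c25 : 25 ∣ Nat.card G → cnt G 25 = 80 := fun d => by
      have := frob 25 [1, 5, 25] d
      have := v 25 (by decide)
      simp only [List.map, List.sum_cons, List.sum_nil] at *
      omega
    have d3 : 3 ∣ Nat.card G := by
      by_cases d25 : 25 ∣ Nat.card G
      · refine prime_dvd (a := 1) Nat.prime_five (by have := c25 d25; norm_num; omega) (fun d => ?_)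
          Nat.prime_three (by omega) (by decide)
        have := frob 125 [1, 5, 25, 125] d
        have := c25 d25
        have := v 125 (by decide)
        simp only [List.map, List.sum_cons, List.sum_nil] at *
        omega
      · exact prime_dvd (a := 0) Nat.prime_five (by norm_num; omega) d25
          Nat.prime_three (by omega) (by decide)
    have c3 := c3 d3
    have c15 : cnt G 15 = 0 := by
      have := frob 15 [1, 3, 5, 15] (by omega : 15 ∣ Nat.card G)
      have := v 15 (by decide)
      have := tot G 15 8
      simp only [List.map, List.sum_cons, List.sum_nil] at *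
      omega
    have n25 : ¬ 5 ^ (1 + 1) ∣ Nat.card G := fun d => by
      have := frob (G := G) 75 [1, 3, 5, 15, 25, 75] (by norm_num at d; omega)
      have := cnt_zero_of_dvd (k := 75) c15 (by decide)
      have := c25 d
      simp only [List.map, List.sum_cons, List.sum_nil] at *
      omega
    have n27 : ¬ 3 ^ (2 + 1) ∣ Nat.card G := fun d => by
      have := frob (G := G) 135 [1, 3, 5, 9, 15, 27, 45, 135] (by norm_num at d; omega)
      have := cnt_zero_of_dvd (k := 45) c15 (by decide)
      have := cnt_zero_of_dvd (k := 135) c15 (by decide)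
      have := c9 d
      have := cnt_zero_of_dvd (k := 27) (c9 d) (by decide)
      simp only [List.map, List.sum_cons, List.sum_nil] at *
      omega
    have c : Nat.card G = 360 :=
      le_antisymm (Nat.le_of_dvd (by decide) (dvd_of_primes 3 2 1 pr n16 n27 n25)) le
    have c4 := c4 (by omega)
    have o : Set.range (orderOf : G → ℕ) = {k : ℕ | 1 ≤ k ∧ k ≤ 5} := by
      ext k
      refine ⟨?_, fun ⟨l1, l2⟩ => cnt_ne_zero.1 (by interval_cases k <;> omega)⟩
      rintro ⟨g, rfl⟩
      refine ⟨orderOf_pos g, by_contra fun l => cnt_ne_zero.2 ⟨g, rfl⟩ ?_⟩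
      have := list_le G [1, 2, 3, 4, 5, orderOf g] (by simp; omega)
      simp only [List.map, List.sum_cons, List.sum_nil] at *
      omega
    refine (Cfsg.Agent.S3433.result o).resolve_right ?_
    rintro ⟨N, _, hN, ⟨e⟩⟩
    have e1 := card_eq_card_quotient_mul_card_subgroup N
    have e2 := card_alt 5
    norm_num only [Nat.factorial] at e2
    rw [Nat.card_congr e.toEquiv, c, show Nat.card (alternatingGroup (Fin 5)) = 60 by omega] at e1
    have := Fact.mk Nat.prime_three
    obtain ⟨x, hx⟩ := exists_prime_orderOf_dvd_card' (G := N) 3 (by omega)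
    have := orderOf_dvd_of_pow_eq_one (Subtype.ext (hN.2 x x.2) : x ^ 2 = 1)
    rw [hx] at this
    omega
  exfalso
  have n243 : ¬ 3 ^ (4 + 1) ∣ Nat.card G := fun d => by
    have c9 := c9 (Dvd.dvd.trans (by decide) d)
    have := frob 243 [1, 3, 9, 27, 81, 243] d
    have := c3 (Dvd.dvd.trans (by decide) d)
    have := cnt_zero_of_dvd (k := 27) c9 (by decide)
    have := cnt_zero_of_dvd (k := 81) c9 (by decide)
    have := cnt_zero_of_dvd (k := 243) c9 (by decide)
    simp only [List.map, List.sum_cons, List.sum_nil] at *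
    omega
  have d := dvd_of_primes 3 4 0 pr n16 n243 d5
  have c : Nat.card G = 648 :=
    (show ∀ d ∈ Nat.divisors 648, 360 ≤ d → d = 648 by decide +kernel) _
      (Nat.mem_divisors.2 ⟨d, by decide⟩) le
  have c8 : cnt G 8 = 0 := by_contra fun n =>
    d5 (prime_dvd (a := 2) Nat.prime_two n n16 Nat.prime_five (by omega) (by decide))
  have o : ∀ g : G, orderOf g ∈ [1, 2, 3, 4, 6, 12] := fun g =>
    (show ∀ d ∈ Nat.divisors 648, ¬ 8 ∣ d → ¬ 9 ∣ d → d ∈ [1, 2, 3, 4, 6, 12] by decide +kernel) _
      (Nat.mem_divisors.2 ⟨(orderOf_dvd_natCard g).trans d, by decide⟩)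
      (not_dvd_order c8 g) (not_dvd_order (c9 (by omega)) g)
  have e := card_list _ o
  simp only [List.map, List.sum_cons, List.sum_nil] at e
  have := c3 (by omega)
  have := c4 (by omega)
  have := v 6 (by decide)
  have := v 12 (by decide)
  omega

end CF.Nse
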